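import Cfsg.Agent.Lib.ConjFunctor.Thompson
import Cfsg.Agent.Lib.ConjFunctor.SectionHyp

/-!
Facts about critical groups.
-/

set_option autoImplicit false
set_option linter.style.haveILetI false

namespace CfsgLib.ConjFunctor

open Cfsg CfsgLib.NormalPComplement
open scoped commutatorElement

variable {G : Type*} [Group G] [Finite G] {p : ℕ} [Fact p.Prime] {S : Sylow p G}

/-- The elements of order prime to `p` of the quotient by the core lie in an abelian normal subgroup of order
prime to `p`. -/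
theorem exists_abelian_complement (h : IsCritical S) :
    ∃ K : Subgroup (G ⧸ pCore p G), K.Normal ∧ IsMulCommutative K ∧ (Nat.card K).Coprime p ∧
      ∀ g : G, (orderOf g).Coprime p → (QuotientGroup.mk g : G ⧸ pCore p G) ∈ K := by
  set T : Set (G ⧸ pCore p G) := QuotientGroup.mk '' {g : G | (orderOf g).Coprime p}
  have hcomm : ∀ a ∈ T, ∀ b ∈ T, a * b = b * a := by
    rintro _ ⟨a, ha, rfl⟩ _ ⟨b, hb, rfl⟩
    have := (QuotientGroup.eq_one_iff _).2 (h.comm a b ha hb)
    change QuotientGroup.mk' (pCore p G) ⁅a, b⁆ = 1 at this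
    rw [map_commutatorElement, commutatorElement_eq_one_iff_mul_comm] at this
    exact this
  let K : Subgroup (G ⧸ pCore p G) :=
    { carrier := {x | x ∈ Subgroup.closure T ∧ (orderOf x).Coprime p}
      one_mem' := ⟨Subgroup.one_mem _, by rw [orderOf_one]; exact Nat.coprime_one_left p⟩
      mul_mem' := fun {x y} hx hy => ⟨Subgroup.mul_mem _ hx.1 hy.1, by
        have hc : Commute x y := by
          haveI := Subgroup.isMulCommutative_closure hcomm
          exact congrArg Subtype.val (mul_comm' (⟨x, hx.1⟩ : Subgroup.closure T) ⟨y, hy.1⟩)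
        exact Nat.Coprime.coprime_dvd_left (hc.orderOf_mul_dvd_lcm.trans (Nat.lcm_dvd_mul _ _))
          (Nat.Coprime.mul_left hx.2 hy.2)⟩
      inv_mem' := fun {x} hx => ⟨Subgroup.inv_mem _ hx.1, by rw [orderOf_inv]; exact hx.2⟩ }
  have hmem : ∀ g : G, (orderOf g).Coprime p → (QuotientGroup.mk g : G ⧸ pCore p G) ∈ K := fun g hg =>
    ⟨Subgroup.subset_closure ⟨g, hg, rfl⟩, hg.coprime_dvd_left (orderOf_map_dvd (QuotientGroup.mk' _) g)⟩
  refine ⟨K, ⟨fun x hx y => ?_⟩, ⟨⟨fun a b => ?_⟩⟩, ?_, hmem⟩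
  · obtain ⟨g, rfl⟩ := QuotientGroup.mk_surjective x
    obtain ⟨y, rfl⟩ := QuotientGroup.mk_surjective y
    obtain ⟨e, he, hee⟩ : ∃ e : ℕ, (orderOf (g ^ e)).Coprime p ∧ (QuotientGroup.mk (g ^ e) : G ⧸ pCore p G) = QuotientGroup.mk g := by
      obtain ⟨a, b, hab, ⟨k, hk⟩, hb⟩ := exists_pParts (p := p) (isOfFinOrder_of_finite g)
      refine ⟨b, hb, ?_⟩
      have h1 : (QuotientGroup.mk (g ^ a) : G ⧸ pCore p G) = 1 := by
        refine orderOf_eq_one_iff.1 (Nat.eq_one_of_dvd_coprimes (hx.2.pow_right k) ?_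
          ((orderOf_map_dvd (QuotientGroup.mk' _) _).trans hk))
        rw [QuotientGroup.mk_pow]
        exact orderOf_pow_dvd _
      conv_rhs => rw [← hab, QuotientGroup.mk_mul, h1, one_mul]
    rw [← hee, ← QuotientGroup.mk_mul, ← QuotientGroup.mk_inv, ← QuotientGroup.mk_mul]
    exact hmem _ (by rwa [← MulAut.conj_apply, MulEquiv.orderOf_eq])
  · haveI := Subgroup.isMulCommutative_closure hcomm
    exact Subtype.ext (congrArg Subtype.val (mul_comm' (⟨a, a.2.1⟩ : Subgroup.closure T) ⟨b, b.2.1⟩) :)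
  · refine ((Fact.out : p.Prime).coprime_iff_not_dvd.2 fun hd => ?_).symm
    obtain ⟨x, hx⟩ := exists_prime_orderOf_dvd_card' (G := K) p hd
    have h2 : (orderOf (x : G ⧸ pCore p G)).Coprime p := x.2.2
    rw [Subgroup.orderOf_coe, hx] at h2
    exact (Fact.out : p.Prime).ne_one ((Nat.coprime_self p).1 h2)

theorem hasNormalPComplement_quotient_of_critical (h : IsCritical S) :
    HasNormalPComplement p (G ⧸ pCore p G) := by
  obtain ⟨K, hK, -, hcop, hmem⟩ := exists_abelian_complement h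
  refine hasNormalPComplement_of_forall_mem fun x hx => ?_
  obtain ⟨g, rfl⟩ := QuotientGroup.mk_surjective x
  obtain ⟨e, he, hee⟩ : ∃ e : ℕ, (orderOf (g ^ e)).Coprime p ∧ (QuotientGroup.mk (g ^ e) : G ⧸ pCore p G) = QuotientGroup.mk g := by
    obtain ⟨a, b, hab, ⟨k, hk⟩, hb⟩ := exists_pParts (p := p) (isOfFinOrder_of_finite g)
    refine ⟨b, hb, ?_⟩
    have h1 : (QuotientGroup.mk (g ^ a) : G ⧸ pCore p G) = 1 := by
      refine orderOf_eq_one_iff.1 (Nat.eq_one_of_dvd_coprimes (hx.pow_right k) ?_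
        ((orderOf_map_dvd (QuotientGroup.mk' _) _).trans hk))
      rw [QuotientGroup.mk_pow]
      exact orderOf_pow_dvd _
    conv_rhs => rw [← hab, QuotientGroup.mk_mul, h1, one_mul]
  rw [← hee]
  haveI := hK
  exact Cores.le_pPrimeCore hcop (hmem _ he)

theorem isCoatom_of_critical (h : IsCritical S) : IsCoatom (S : Subgroup G) :=
  ⟨fun htop => h.not_hasComplement (hasNormalPComplement_of_isPGroup
      ((htop ▸ S.2 : IsPGroup p (⊤ : Subgroup G)).of_equiv Subgroup.topEquiv)),
    fun M hM => (h.maximal M hM.le).resolve_left hM.ne'⟩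

theorem not_hasNormalPComplement_normalizer (h : IsCritical S) {X : Subgroup G}
    (hn : HasNormalPComplement p (Subgroup.normalizer (X : Set G))) : ¬ X.Normal := fun hX => by
  haveI := hX
  rw [Subgroup.normalizer_eq_top] at hn
  exact h.not_hasComplement ((hasNormalPComplement_congr (Subgroup.topEquiv (G := G))).1 hn)

end CfsgLib.ConjFunctor
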