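import Cfsg.Prelude.Def_ConjugacyFunctors
import Cfsg.Agent.Lib.ConjFunctor.WellPlaced

/-!
Conjugation families as fusion relations.
-/

set_option autoImplicit false
set_option linter.style.haveILetI false

namespace CfsgLib.ConjFunctor

variable {G : Type*} [Group G]

/-- `g` is a product `x₁ ⋯ xₙ` of normalizers of members of `𝓕` carrying `B` along, by `a ↦ x⁻¹ a x`. -/
inductive Decomp (𝓕 : Set (Subgroup G)) : Subgroup G → G → Prop
  | nil (B : Subgroup G) : Decomp 𝓕 B 1
  | cons {B T : Subgroup G} {x g : G} : T ∈ 𝓕 → B ≤ T → x ∈ Subgroup.normalizer (T : Set G) →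
      Decomp 𝓕 (cj x⁻¹ B) g → Decomp 𝓕 B (x * g)

variable {𝓕 : Set (Subgroup G)}

theorem Decomp.trans {B : Subgroup G} {a b : G} (h : Decomp 𝓕 B a) (h' : Decomp 𝓕 (cj a⁻¹ B) b) :
    Decomp 𝓕 B (a * b) := by
  induction h with
  | nil B => simpa using h'
  | @cons B T x g hT hB hx _ ih =>
    rw [mul_assoc]
    refine Decomp.cons hT hB hx (ih ?_)
    rwa [← cj_mul, ← mul_inv_rev]

theorem Decomp.mono {B B' : Subgroup G} {a : G} (h : Decomp 𝓕 B a) (hB : B' ≤ B) : Decomp 𝓕 B' a := by
  induction h generalizing B' with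
  | nil B => exact Decomp.nil B'
  | cons hT hBT hx _ ih => exact Decomp.cons hT (hB.trans hBT) hx (ih (cj_mono _ hB))

theorem isFusionRel_decomp (S : Subgroup G) :
    IsFusionRel S (fun B h => Decomp 𝓕 B h⁻¹) where
  comp B x y _ _ h1 h2 := by
    rw [mul_inv_rev]
    exact h1.trans (by rwa [inv_inv])
  mono _ _ _ hle _ _ h := h.mono hle

theorem Decomp.exists_fin {B : Subgroup G} {g : G} (h : Decomp 𝓕 B g) :
    ∃ (n : ℕ) (T : Fin n → Subgroup G) (x : Fin n → G), (List.ofFn x).prod = g ∧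
      (∀ i, T i ∈ 𝓕) ∧ (∀ i, x i ∈ Subgroup.normalizer (T i : Set G)) ∧
      ∀ i : Fin n, cj (((List.ofFn x).take i.val).prod)⁻¹ B ≤ T i := by
  induction h with
  | nil B => exact ⟨0, Fin.elim0, Fin.elim0, by simp, fun i => i.elim0, fun i => i.elim0, fun i => i.elim0⟩
  | @cons B T x g hT hB hx _ ih =>
    obtain ⟨n, Ts, xs, hp, hm, hn, hc⟩ := ih
    refine ⟨n + 1, Fin.cons T Ts, Fin.cons x xs, ?_, ?_, ?_, ?_⟩
    · rw [List.ofFn_cons, List.prod_cons, hp]
    · intro i
      induction i using Fin.cases with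
      | zero => simpa using hT
      | succ i => simpa using hm i
    · intro i
      induction i using Fin.cases with
      | zero => simpa using hx
      | succ i => simpa using hn i
    · intro i
      induction i using Fin.cases with
      | zero => simpa using hB
      | succ i =>
        rw [List.ofFn_cons, Fin.val_succ, List.take_succ_cons, List.prod_cons, mul_inv_rev, cj_mul,
          Fin.cons_succ]
        exact hc i

/-- From decompositions to a conjugation family. -/
theorem isConjugationFamily_of_decomp {S : Subgroup G} (hle : ∀ T ∈ 𝓕, T ≤ S)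
    (h : ∀ B g, B ≤ S → cj g⁻¹ B ≤ S → Decomp 𝓕 B g) : Cfsg.IsConjugationFamily 𝓕 S := by
  refine ⟨hle, fun A g _ hA hAg => ?_⟩
  have hB : Subgroup.closure A ≤ S := (Subgroup.closure_le _).mpr hA
  have hBg : cj g⁻¹ (Subgroup.closure A) ≤ S := by
    rw [cj_closure_le_iff]
    simpa using hAg
  obtain ⟨n, T, x, hp, hm, hn, hc⟩ := (h _ g hB hBg).exists_fin
  refine ⟨n, T, x, hp, hm, hn, fun h0 => ?_, fun i hi => ?_⟩
  · intro a ha
    have := hc ⟨0, h0⟩
    simp only [List.take_zero, List.prod_nil, inv_one, cj_one] at this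
    exact this (Subgroup.subset_closure ha)
  · rintro _ ⟨a, ha, rfl⟩
    have := hc ⟨i.val + 1, hi⟩ (conj_mem_cj (g := (((List.ofFn x).take (i.val + 1)).prod)⁻¹)
      (Subgroup.subset_closure ha))
    simpa using this

variable [Finite G] {p : ℕ} [Fact p.Prime]

/-- A conjugacy-closed set of extremal subgroups is a conjugation family. -/
theorem isConjugationFamily_of_extremalSet {S : Subgroup G} (hS : IsPGroup p S)
    {Good : Subgroup G → Prop} (hG : IsExtremalSet p S Good) (hle : ∀ T ∈ 𝓕, T ≤ S)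
    (hmem : ∀ U, Good U → U ∈ 𝓕) : Cfsg.IsConjugationFamily 𝓕 S := by
  refine isConjugationFamily_of_decomp hle fun B g hB hBg => ?_
  have := fusion_induction hS (isFusionRel_decomp (𝓕 := 𝓕) S) hG (fun U hU _ x hx => ?_) B g⁻¹ hB hBg
  · simpa using this
  · have h1 : Decomp 𝓕 U (x⁻¹ * 1) :=
      Decomp.cons (hmem U hU) le_rfl (inv_mem hx) (Decomp.nil _)
    simpa using h1

end CfsgLib.ConjFunctor
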