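import Mathlib

/-!
An involution whose centralizer meets no proper normal subgroup, inside a four-group of conjugates.
-/

set_option autoImplicit false

namespace CfsgLib.ConjFunctor

variable {H : Type*} [Group H] [Finite H]

theorem fpf_conj {N : Subgroup H} [hNn : N.Normal] {e : H} (hNe : N ⊓ Subgroup.centralizer ({e} : Set H) = ⊥)
    (he : e * e = 1) :
    (∀ n ∈ N, e * n * e⁻¹ = n⁻¹) ∧ ∀ a ∈ N, ∀ b ∈ N, a * b = b * a := by
  let φ : N → N := fun n => ⟨e * n * e⁻¹, hNn.conj_mem _ n.2 e⟩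
  let φ' : N →* N :=
    { toFun := φ
      map_one' := Subtype.ext (by simp [φ])
      map_mul' := fun a b => Subtype.ext (by simp [φ, mul_assoc]) }
  have hf : MonoidHom.FixedPointFree φ' := by
    intro n hn
    have h1 : (n : H) ∈ N ⊓ Subgroup.centralizer ({e} : Set H) := ⟨n.2, Subgroup.mem_centralizer_singleton_iff.2 (by
      have h2 : e * n * e⁻¹ = n := congrArg Subtype.val hn
      conv_lhs => rw [← h2]
      group)⟩
    rw [hNe, Subgroup.mem_bot] at h1
    exact Subtype.ext h1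
  have h2 : Function.Involutive φ' := fun n => Subtype.ext (by
    show e * (e * n * e⁻¹) * e⁻¹ = n
    calc e * (e * n * e⁻¹) * e⁻¹ = (e * e) * n * (e * e)⁻¹ := by group
      _ = n := by simp [he])
  refine ⟨fun n hn => ?_, fun a ha b hb => congrArg Subtype.val (hf.commute_all_of_involutive h2 ⟨a, ha⟩ ⟨b, hb⟩).eq⟩
  exact congrArg Subtype.val (congrFun (hf.coe_eq_inv_of_involutive h2) ⟨n, hn⟩)

/-- No abelian normal subgroup. -/
theorem eq_bot_of_klein {z : H} (hz : orderOf z = 2)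
    (hN : ∀ N : Subgroup H, N.Normal → N ≠ ⊤ → N ⊓ Subgroup.centralizer ({z} : Set H) = ⊥) {E : Subgroup H}
    (hE : IsKleinFour E) (hzE : z ∈ E) (hc : ∀ e ∈ E, e ≠ 1 → IsConj z e) (N : Subgroup H) [N.Normal]
    (hab : ∀ a ∈ N, ∀ b ∈ N, a * b = b * a) : N = ⊥ := by
  classical
  have hz1 : z ≠ 1 := fun h => by rw [h, orderOf_one] at hz; exact absurd hz (by norm_num)
  have hzz : z * z = 1 := by rw [← sq, ← hz]; exact pow_orderOf_eq_one z
  obtain ⟨e, heE, he1, hez⟩ : ∃ e ∈ E, e ≠ 1 ∧ e ≠ z := by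
    by_contra! hcon
    have h1 : Nat.card E ≤ 2 := by
      refine (Nat.card_le_card_of_injective (fun x : E => decide ((x : H) = 1)) ?_).trans (by simp)
      intro x y hxy
      have h3 := decide_eq_decide.1 hxy
      by_cases hx : (x : H) = 1
      · exact Subtype.ext (hx.trans (h3.1 hx).symm)
      · exact Subtype.ext ((hcon _ x.2 hx).trans (hcon _ y.2 fun hy => hx (h3.2 hy)).symm)
    rw [hE.card_four] at h1
    omega
  have hNt : N ≠ ⊤ := by
    intro htop
    obtain ⟨c, hc'⟩ := isConj_iff.1 (hc e heE he1)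
    exact hez (by rw [← hc', hab c (htop ▸ Subgroup.mem_top c) z (htop ▸ Subgroup.mem_top z), mul_inv_cancel_right])
  have key : ∀ x ∈ E, x ≠ 1 → ∀ n ∈ N, x * n * x⁻¹ = n⁻¹ := by
    intro x hx hx1
    obtain ⟨c, hcx⟩ := isConj_iff.1 (hc x hx hx1)
    refine (fpf_conj ?_ ?_).1
    · rw [eq_bot_iff]
      intro n hn
      have h1 : c⁻¹ * n * c ∈ N ⊓ Subgroup.centralizer ({z} : Set H) :=
        ⟨by simpa using (inferInstance : N.Normal).conj_mem _ hn.1 c⁻¹, Subgroup.mem_centralizer_singleton_iff.2 (by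
          have h2 := Subgroup.mem_centralizer_singleton_iff.1 hn.2
          rw [← hcx] at h2
          calc c⁻¹ * n * c * z = c⁻¹ * (n * (c * z * c⁻¹)) * c := by group
            _ = z * (c⁻¹ * n * c) := by rw [h2]; group)⟩
      rw [hN N inferInstance hNt, Subgroup.mem_bot] at h1
      rw [Subgroup.mem_bot]
      calc n = c * (c⁻¹ * n * c) * c⁻¹ := by group
        _ = 1 := by rw [h1]; group
    · rw [← hcx]
      calc c * z * c⁻¹ * (c * z * c⁻¹) = c * (z * z) * c⁻¹ := by group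
        _ = 1 := by rw [hzz]; group
  refine eq_bot_iff.2 fun n hn => ?_
  have hze : z * e ≠ 1 := fun h => hez (mul_left_cancel (h.trans hzz.symm))
  have h1 := key (z * e) (E.mul_mem hzE heE) hze n hn
  have h2 := key e heE he1 n hn
  have h3 := key z hzE hz1 n⁻¹ (N.inv_mem hn)
  have h4 : n = n⁻¹ := by
    rw [← h1]
    calc n = n⁻¹⁻¹ := (inv_inv n).symm
      _ = z * n⁻¹ * z⁻¹ := h3.symm
      _ = z * (e * n * e⁻¹) * z⁻¹ := by rw [h2]
      _ = z * e * n * (z * e)⁻¹ := by group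
  have h5 : n ∈ N ⊓ Subgroup.centralizer ({z} : Set H) := ⟨hn, Subgroup.mem_centralizer_singleton_iff.2 (by
    have h6 := key z hzE hz1 n hn
    rw [← h4, mul_inv_eq_iff_eq_mul] at h6
    exact h6.symm)⟩
  rwa [hN N inferInstance hNt] at h5

end CfsgLib.ConjFunctor
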