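import Cfsg.Agent.Lib.ConjFunctor.CriticalGroup
import Cfsg.Agent.Lib.ConjFunctor.Engel
import Cfsg.Agent.Lib.KInf.CriticalEngel
import Cfsg.Agent.Lib.Transfer.Tate

/-!
An element `σ` with `1 + σ + ⋯ + σ ^ (p - 1) = 0` in a ring of characteristic `p` centralises every abelian group
of units of order prime to `p` that it normalises; consequently a critical group has no such element on a chief
factor.
-/

set_option autoImplicit false
set_option linter.style.haveILetI false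

namespace CfsgLib.ConjFunctor

open scoped commutatorElement

/-- **The group-ring identity.** -/
theorem commute_of_geom_sum_eq_zero {R : Type*} [Ring R] {p : ℕ} [Fact p.Prime] (hR : (p : R) = 0) {σ : Rˣ}
    (hσ : ∑ i ∈ Finset.range p, (σ : R) ^ i = 0) {A : Subgroup Rˣ} [Finite A]
    (hA : ∀ a ∈ A, ∀ b ∈ A, a * b = b * a) (hcop : (Nat.card A).Coprime p)
    (hn : ∀ a ∈ A, σ * a * σ⁻¹ ∈ A) {a : Rˣ} (ha : a ∈ A) : a * σ = σ * a := by
  classical
  haveI : Fintype A := Fintype.ofFinite A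
  have hnk : ∀ (k : ℕ) {x : Rˣ}, x ∈ A → σ ^ k * x * (σ ^ k)⁻¹ ∈ A := by
    intro k
    induction k with
    | zero => intro x hx; simpa using hx
    | succ k ih =>
      intro x hx
      rw [show σ ^ (k + 1) * x * (σ ^ (k + 1))⁻¹ = σ * (σ ^ k * x * (σ ^ k)⁻¹) * σ⁻¹ by rw [pow_succ']; group]
      exact hn _ (ih hx)
  let c : ℕ → A → A := fun i x => ⟨x * (σ ^ i * (x : Rˣ)⁻¹ * (σ ^ i)⁻¹), A.mul_mem x.2 (hnk i (A.inv_mem x.2))⟩
  have hcmul : ∀ i x y, c i (x * y) = c i x * c i y := by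
    intro i x y
    apply Subtype.ext
    have h1 := hA y y.2 _ (hnk i (A.inv_mem x.2))
    have h2 := hA _ (hnk i (A.inv_mem y.2)) _ (hnk i (A.inv_mem x.2))
    show (x : Rˣ) * y * (σ ^ i * ((x : Rˣ) * y)⁻¹ * (σ ^ i)⁻¹) =
      x * (σ ^ i * (x : Rˣ)⁻¹ * (σ ^ i)⁻¹) * (y * (σ ^ i * (y : Rˣ)⁻¹ * (σ ^ i)⁻¹))
    calc (x : Rˣ) * y * (σ ^ i * ((x : Rˣ) * y)⁻¹ * (σ ^ i)⁻¹)
        = x * (y * ((σ ^ i * (y : Rˣ)⁻¹ * (σ ^ i)⁻¹) * (σ ^ i * (x : Rˣ)⁻¹ * (σ ^ i)⁻¹))) := by group
      _ = x * ((y * (σ ^ i * (x : Rˣ)⁻¹ * (σ ^ i)⁻¹)) * (σ ^ i * (y : Rˣ)⁻¹ * (σ ^ i)⁻¹)) := by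
          rw [h2]; simp only [mul_assoc]
      _ = _ := by rw [h1]; group
  have hrange : ∀ i n : ℕ, ∀ x : A, ∃ y : A, c i y = c (i * n) x := by
    intro i n
    induction n with
    | zero =>
      intro x
      refine ⟨1, Subtype.ext ?_⟩
      simp [c]
    | succ n ih =>
      intro x
      obtain ⟨y, hy⟩ := ih x
      refine ⟨y * ⟨σ ^ (i * n) * x * (σ ^ (i * n))⁻¹, hnk _ x.2⟩, ?_⟩
      rw [hcmul, hy]
      apply Subtype.ext
      show (x : Rˣ) * (σ ^ (i * n) * (x : Rˣ)⁻¹ * (σ ^ (i * n))⁻¹) * _ = _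
      simp only [c, Nat.mul_succ, pow_add]
      group
  have hσp : σ ^ p = 1 := by
    apply Units.ext
    rw [Units.val_pow_eq_pow_val, Units.val_one, ← sub_eq_zero, ← geom_sum_mul, hσ, zero_mul]
  set f : ℕ → R := fun i => ∑ x : A, ((c i x : Rˣ) : R)
  have hinv : ∀ i, i ≠ 0 → i < p → ((c 1 ⟨a, ha⟩ : Rˣ) : R) * f i = f i := by
    intro i hi hip
    have hcop' : Nat.Coprime i p := ((Fact.out : p.Prime).coprime_iff_not_dvd.2
      (Nat.not_dvd_of_pos_of_lt (Nat.pos_of_ne_zero hi) hip)).symm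
    obtain ⟨n, hn'⟩ := Nat.exists_mul_mod_eq_one_of_coprime hcop' (Fact.out : p.Prime).one_lt
    obtain ⟨y, hy⟩ := hrange i n ⟨a, ha⟩
    have hpow : σ ^ (i * n) = σ := by
      conv_rhs => rw [← pow_one σ, ← hn'.2]
      exact pow_eq_pow_mod _ hσp
    have hy' : c 1 ⟨a, ha⟩ = c i y := by
      rw [hy]; apply Subtype.ext; simp only [c, hpow, pow_one]
    rw [hy', Finset.mul_sum]
    refine Fintype.sum_bijective (y * ·) (Group.mulLeft_bijective y) _ _ fun x => ?_
    rw [hcmul]; rfl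
  have hsum : ∑ i ∈ Finset.range p, f i * (σ : R) ^ i = 0 := by
    simp only [f, Finset.sum_mul]
    rw [Finset.sum_comm]
    refine Finset.sum_eq_zero fun x _ => ?_
    have h1 : ∀ i, ((c i x : Rˣ) : R) * (σ : R) ^ i = ((x : Rˣ) : R) * (σ : R) ^ i * (((x : Rˣ)⁻¹ : Rˣ) : R) := by
      intro i
      rw [← Units.val_pow_eq_pow_val, ← Units.val_mul, ← Units.val_mul, ← Units.val_mul]
      congr 1
      simp only [c]
      group
    rw [Finset.sum_congr rfl fun i _ => h1 i, ← Finset.sum_mul, ← Finset.mul_sum, hσ, mul_zero, zero_mul]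
  have h0 : f 0 = (Fintype.card A : R) := by
    simp [f, c]
  set b : R := ((c 1 ⟨a, ha⟩ : Rˣ) : R)
  have hz : (b - 1) * (f 0 * (σ : R) ^ 0) = 0 := by
    have h2 := congrArg ((b - 1) * ·) hsum
    simp only [mul_zero, Finset.mul_sum] at h2
    rwa [Finset.sum_eq_single 0 (fun i hi hi0 => by
      rw [← mul_assoc, sub_mul, hinv i hi0 (Finset.mem_range.1 hi), one_mul, sub_self, zero_mul])
      (fun h => absurd (Finset.mem_range.2 (Fact.out : p.Prime).pos) h)] at h2
  rw [pow_zero, mul_one, h0, ← Nat.card_eq_fintype_card] at hz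
  obtain ⟨m, hm⟩ := Nat.exists_mul_mod_eq_one_of_coprime hcop (Fact.out : p.Prime).one_lt
  have hunit : ((Nat.card A : R)) * (m : R) = 1 := by
    rw [← Nat.cast_mul, ← Nat.mod_add_div (Nat.card A * m) p, hm.2, Nat.cast_add, Nat.cast_mul, hR, zero_mul,
      add_zero, Nat.cast_one]
  have hb : b = 1 := by
    have h3 := congrArg (· * (m : R)) hz
    simp only [zero_mul, mul_assoc, hunit, mul_one] at h3
    exact sub_eq_zero.1 h3
  have hb' : a * (σ * a⁻¹ * σ⁻¹) = 1 := by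
    have h5 : (c 1 ⟨a, ha⟩ : Rˣ) = 1 := Units.ext hb
    simpa [c] using h5
  calc a * σ = (a * (σ * a⁻¹ * σ⁻¹)) * (σ * a) := by group
    _ = σ * a := by rw [hb', one_mul]

open Cfsg CfsgLib.NormalPComplement

variable {G : Type*} [Group G] [Finite G] {p : ℕ} [Fact p.Prime] {S : Sylow p G}

/-- A `p`-subgroup whose product with the kernel of a chief factor is normal lies in the kernel. -/
theorem le_commKer_of_normal_sup {U V : Subgroup G} (h : Cfsg.IsChiefFactor U V) (hU : IsPGroup p U)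
    {D C : Subgroup G} (hD : IsPGroup p D) (hC : ∀ c ∈ C, ∀ u ∈ U, ⁅c, u⁆ ∈ V) (hL : (D ⊔ C).Normal) :
    ∀ d ∈ D, ∀ u ∈ U, ⁅d, u⁆ ∈ V := by
  haveI := h.2.1
  haveI := h.2.2.1
  haveI := hL
  set f := QuotientGroup.mk' V
  have hK : IsPGroup p ↥((D ⊔ U).map f) := (hD.to_sup_of_normal_right hU).map f
  set K := (D ⊔ U).map f
  haveI : (U.map f).Normal := Subgroup.Normal.map inferInstance f (QuotientGroup.mk'_surjective V)
  have hne : (U.map f).subgroupOf K ≠ ⊥ := by
    rw [Ne, Subgroup.subgroupOf_eq_bot]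
    intro hdis
    have hb := disjoint_self.1 (hdis.mono_right (Subgroup.map_mono le_sup_right : U.map f ≤ K))
    rw [Subgroup.map_eq_bot_iff, QuotientGroup.ker_mk'] at hb
    exact h.1.not_ge hb
  obtain ⟨c, ⟨hcP, hcZ⟩, hc1⟩ := Transfer.exists_mem_inf_center_ne_one hK hne
  obtain ⟨c', hc'U, hc'⟩ := Subgroup.mem_subgroupOf.1 hcP
  have hfix : c' ∈ U ⊓ KInf.commKer (D ⊔ C) V := by
    refine ⟨hc'U, KInf.mem_commKer.2 fun l hl => ?_⟩
    have hle : D ⊔ C ≤ (Subgroup.centralizer ({f c'} : Set (G ⧸ V))).comap f := by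
      refine sup_le (fun d hd => ?_) fun x hx => ?_
      · rw [Subgroup.mem_comap, Subgroup.mem_centralizer_singleton_iff, hc']
        exact congrArg Subtype.val
          (Subgroup.mem_center_iff.1 hcZ ⟨f d, Subgroup.mem_map_of_mem f (Subgroup.mem_sup_left hd)⟩)
      · rw [Subgroup.mem_comap, Subgroup.mem_centralizer_singleton_iff, ← commutatorElement_eq_one_iff_mul_comm,
          ← map_commutatorElement]
        exact (QuotientGroup.eq_one_iff _).2 (hC x hx c' hc'U)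
    have hl' := Subgroup.mem_centralizer_singleton_iff.1 (Subgroup.mem_comap.1 (hle hl))
    rw [← QuotientGroup.eq_one_iff]
    show f ⁅c', l⁆ = 1
    rw [map_commutatorElement, commutatorElement_eq_one_iff_mul_comm]
    exact hl'.symm
  rcases h.2.2.2 (U ⊓ KInf.commKer (D ⊔ C) V) inferInstance
    (le_inf h.1.le fun v hv => KInf.mem_commKer.2 fun l _ =>
      Subgroup.commutator_le_left V ⊤ (Subgroup.commutator_mem_commutator hv (Subgroup.mem_top l))) inf_le_left with e | e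
  · refine absurd ?_ hc1
    refine Subtype.ext ?_
    rw [← hc']
    exact (QuotientGroup.eq_one_iff c').2 (e ▸ hfix)
  · intro d hd u hu
    rw [← commutatorElement_inv]
    exact V.inv_mem (KInf.mem_commKer.1 (e.ge hu).2 d (Subgroup.mem_sup_left hd))

open scoped IsMulCommutative in
/-- **No Engel element on a chief factor of a critical group.** -/
theorem commutator_le_of_critical (h : IsCritical S) {U V : Subgroup G} (hUV : Cfsg.IsChiefFactor U V)
    (hUQ : U ≤ Cfsg.pCore p G) {g : G} (hgS : g ∈ (S : Subgroup G))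
    (hg : Cfsg.iterCommutator U (Subgroup.zpowers g) (p - 1) ≤ V) : ⁅U, Subgroup.zpowers g⁆ ≤ V := by
  classical
  haveI := hUV.2.1
  haveI := hUV.2.2.1
  have hUp : IsPGroup p U := (Cores.isPGroup_pCore p G).to_le hUQ
  obtain ⟨hel, hexp⟩ := chiefFactor_elementary hUV hUp
  haveI : IsMulCommutative (↥U ⧸ V.subgroupOf U) := by
    rw [Subgroup.Normal.quotient_commutative_iff_commutator_le]
    refine Subgroup.map_le_map_iff_of_injective (f := U.subtype) U.subtype_injective |>.1 ?_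
    rw [Subgroup.map_subtype_commutator, Subgroup.subgroupOf_map_subtype]
    exact le_inf hel (commutator_le_self _)
  let Φ₀ : G →* AddMonoid.End (Additive (↥U ⧸ V.subgroupOf U)) :=
    { toFun := fun x => MonoidHom.toAdditive (quotConj U V x).toMonoidHom
      map_one' := by rw [map_one]; rfl
      map_mul' := fun x y => by rw [map_mul]; rfl }
  let Φ := Φ₀.toHomUnits
  set R := AddMonoid.End (Additive (↥U ⧸ V.subgroupOf U))
  have hchar : (p : R) = 0 := by
    refine AddMonoidHom.ext fun v => ?_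
    obtain ⟨x, hx⟩ := QuotientGroup.mk_surjective (Additive.toMul v)
    refine (AddMonoid.End.natCast_apply p v).trans ?_
    apply Additive.toMul.injective
    show (Additive.toMul v) ^ p = 1
    rw [← hx, ← QuotientGroup.mk_pow]
    exact (QuotientGroup.eq_one_iff _).2 (Subgroup.mem_subgroupOf.2 (hexp x x.2))
  have hker : ∀ x : G, Φ x = 1 ↔ ∀ u ∈ U, ⁅x, u⁆ ∈ V := by
    intro x
    constructor
    · intro hx u hu
      have h1 : quotConj U V x (QuotientGroup.mk ⟨u, hu⟩) = QuotientGroup.mk (⟨u, hu⟩ : U) := by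
        have h0 := DFunLike.congr_fun (congrArg Units.val hx)
          (Additive.ofMul (QuotientGroup.mk ⟨u, hu⟩ : ↥U ⧸ V.subgroupOf U))
        exact congrArg Additive.toMul h0
      rw [quotConj_mk] at h1
      have h2 := Subgroup.mem_subgroupOf.1 (QuotientGroup.eq.1 h1.symm)
      have h3 := hUV.2.2.1.conj_mem _ h2 u
      simpa [commutatorElement_def, mul_assoc] using h3
    · intro hx
      refine Units.ext (AddMonoidHom.ext fun v => ?_)
      obtain ⟨u, hu⟩ := QuotientGroup.mk_surjective (Additive.toMul v)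
      apply Additive.toMul.injective
      show quotConj U V x (Additive.toMul v) = Additive.toMul v
      rw [← hu, quotConj_mk]
      refine (QuotientGroup.eq.2 (Subgroup.mem_subgroupOf.2 ?_)).symm
      have h3 := hUV.2.2.1.conj_mem _ (hx u u.2) (u : G)⁻¹
      simpa [commutatorElement_def, mul_assoc] using h3
  have hQker : Cfsg.pCore p G ≤ Φ.ker := fun q hq => MonoidHom.mem_ker.2 ((hker q).2 fun u hu =>
    KInf.mem_chiefKernel.1 (KInf.pCore_le_chiefKernel le_rfl hq) U V hUV hUQ u hu)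
  obtain ⟨K, hK, hKab, hKcop, hKmem⟩ := exists_abelian_complement h
  haveI := hK
  let Φb : G ⧸ Cfsg.pCore p G →* Rˣ := QuotientGroup.lift _ Φ hQker
  set A := K.map Φb with hA
  haveI : Finite A := Finite.of_surjective (Φb.subgroupMap K) (Φb.subgroupMap_surjective K)
  have hσ : ∑ i ∈ Finset.range p, ((Φ g : Rˣ) : R) ^ i = 0 := by
    refine AddMonoidHom.ext fun v => ?_
    refine (AddMonoidHom.finsetSum_apply _ _ _).trans ?_
    have hp1 : p ^ 1 = p := pow_one p
    have := killsOrbits_quotConj U V hexp hg (Subgroup.mem_zpowers g) le_rfl (Additive.toMul v)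
    rw [hp1] at this
    refine Eq.trans ?_ (congrArg Additive.ofMul this)
    rw [ofMul_prod]
    refine Finset.sum_congr rfl fun i _ => ?_
    rw [← Units.val_pow_eq_pow_val, ← map_pow]
    rfl
  have hcomm : ∀ k : G, (orderOf k).Coprime p → Φ k * Φ g = Φ g * Φ k := by
    intro k hk
    refine commute_of_geom_sum_eq_zero hchar hσ (A := A) ?_ ?_ ?_ ⟨_, hKmem k hk, rfl⟩
    · rintro _ ⟨a, ha, rfl⟩ _ ⟨b, hb, rfl⟩
      rw [← map_mul, ← map_mul, show a * b = b * a from
        congrArg Subtype.val (hKab.is_comm.comm ⟨a, ha⟩ ⟨b, hb⟩)]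
    · exact hKcop.coprime_dvd_left (Subgroup.card_map_dvd K Φb)
    · rintro _ ⟨a, ha, rfl⟩
      exact ⟨QuotientGroup.mk g * a * (QuotientGroup.mk g)⁻¹, hK.conj_mem a ha _, by
        rw [map_mul, map_mul, map_inv]; rfl⟩
  set D := (S : Subgroup G) ⊓ (Subgroup.centralizer (Φ '' {k : G | (orderOf k).Coprime p})).comap Φ with hD
  have hgD : g ∈ D := ⟨hgS, Subgroup.mem_comap.2 (Subgroup.mem_centralizer_iff.2 (by
    rintro _ ⟨k, hk, rfl⟩; exact hcomm k hk))⟩
  have hord : ∀ (x k : G), (orderOf k).Coprime p → (orderOf (x * k * x⁻¹)).Coprime p :=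
    fun x k hk => by rwa [← MulAut.conj_apply, MulEquiv.orderOf_eq]
  obtain ⟨k₀, hk₀, hk₀1⟩ := exists_coprime_ne_one h.not_hasComplement
  have hSn : (S : Subgroup G) ≤ Subgroup.normalizer ((D ⊔ Φ.ker : Subgroup G) : Set G) := by
    refine (le_inf ?_ (Subgroup.normalizer_eq_top (H := Φ.ker) ▸ le_top)).trans
      (Subgroup.normalizer_inf_normalizer_le_normalizer_sup _ _)
    intro s hs
    refine cj_eq_self_iff.1 (Subgroup.eq_of_le_of_card_ge ?_ (card_cj s D).ge)
    rintro _ ⟨x, hx, rfl⟩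
    refine ⟨(S : Subgroup G).mul_mem ((S : Subgroup G).mul_mem hs hx.1) ((S : Subgroup G).inv_mem hs), ?_⟩
    show Φ (s * x * s⁻¹) ∈ Subgroup.centralizer _
    rw [Subgroup.mem_centralizer_iff]
    rintro _ ⟨k, hk, rfl⟩
    have h1 := Subgroup.mem_centralizer_iff.1 (Subgroup.mem_comap.1 hx.2) _ ⟨s⁻¹ * k * s, by
      simpa using hord s⁻¹ k hk, rfl⟩
    simp only [map_mul, map_inv] at h1
    show Φ k * Φ (s * x * s⁻¹) = Φ (s * x * s⁻¹) * Φ k
    simp only [map_mul, map_inv]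
    calc Φ k * (Φ s * Φ x * (Φ s)⁻¹) = Φ s * (((Φ s)⁻¹ * Φ k * Φ s) * Φ x) * (Φ s)⁻¹ := by group
      _ = _ := by rw [h1]; group
  have hk₀n : k₀ ∈ Subgroup.normalizer ((D ⊔ Φ.ker : Subgroup G) : Set G) := by
    refine cj_eq_self_iff.1 (Subgroup.eq_of_le_of_card_ge ?_ (card_cj k₀ _).ge)
    show Subgroup.map _ _ ≤ _
    rw [Subgroup.map_sup]
    refine sup_le ?_ ((cj_of_normal k₀ Φ.ker).le.trans le_sup_right)
    rintro _ ⟨x, hx, rfl⟩
    have h1 := Subgroup.mem_centralizer_iff.1 (Subgroup.mem_comap.1 hx.2) _ ⟨k₀, hk₀, rfl⟩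
    have h2 : ⁅k₀, x⁆ ∈ Φ.ker := MonoidHom.mem_ker.2 (by
      rw [map_commutatorElement, commutatorElement_eq_one_iff_mul_comm]; exact h1)
    have h3 := (D ⊔ Φ.ker).mul_mem (Subgroup.mem_sup_right h2) (Subgroup.mem_sup_left hx)
    simpa [commutatorElement_def, mul_assoc] using h3
  have hnorm : (D ⊔ Φ.ker).Normal := Subgroup.normalizer_eq_top_iff.1 (h.eq_top hSn hk₀n hk₀ hk₀1)
  have := le_commKer_of_normal_sup hUV hUp (S.2.to_le inf_le_left) (C := Φ.ker)
    (fun c hc => (hker c).1 hc) hnorm g hgD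
  rw [Subgroup.commutator_comm]
  refine Subgroup.commutator_le.2 fun x hx u hu => ?_
  exact (hker x).1 (MonoidHom.mem_ker.1 ((Subgroup.zpowers_le.2 (MonoidHom.mem_ker.2 ((hker g).2 this))) hx)) u hu

end CfsgLib.ConjFunctor
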