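import Cfsg.Prelude.Def_PLocal
import Cfsg.Agent.Lib.ConjFunctor.SectionHyp

/-!
The factorisation `G = C(Ω₁ Z(S)) N(W S)` passes from the constrained sections to every section in which
`Ω₁ Z(S)` lies in `O_p`; fusion through two normalizers from a factorisation by them.
-/

set_option autoImplicit false
set_option linter.style.haveILetI false

namespace CfsgLib.ConjFunctor

universe u

variable {p : ℕ}

/-- `Ω₁` of the centre of `T`, inside the ambient group. -/
abbrev omegaCenter (p : ℕ) {G : Type*} [Group G] (T : Subgroup G) : Subgroup G :=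
  Cfsg.omegaOne p (T ⊓ Subgroup.centralizer (T : Set G))

theorem omegaCenter_le {G : Type*} [Group G] (T : Subgroup G) : omegaCenter p T ≤ T :=
  (Subgroup.closure_le _).2 fun _ hx => hx.1.1

theorem omegaCenter_le_centralizer {G : Type*} [Group G] (T : Subgroup G) :
    omegaCenter p T ≤ Subgroup.centralizer (T : Set G) :=
  (Subgroup.closure_le _).2 fun _ hx => hx.1.2

theorem map_omegaCenter_le {G H : Type*} [Group G] [Group H] (f : G →* H) (T : Subgroup G) :
    (omegaCenter p T).map f ≤ omegaCenter p (T.map f) := by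
  rw [Subgroup.map_le_iff_le_comap]
  refine (Subgroup.closure_le _).2 fun x hx => Subgroup.subset_closure ⟨⟨Subgroup.mem_map_of_mem f hx.1.1, ?_⟩, ?_⟩
  · refine Subgroup.mem_centralizer_iff.2 ?_
    rintro _ ⟨t, ht, rfl⟩
    rw [← map_mul, ← map_mul, Subgroup.mem_centralizer_iff.1 hx.1.2 t ht]
  · rw [← map_pow, hx.2, map_one]

theorem omegaCenter_le_map_subtype {G : Type*} [Group G] {M T : Subgroup G} (hTM : T ≤ M) :
    omegaCenter p T ≤ (omegaCenter p (T.subgroupOf M)).map M.subtype := by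
  refine (Subgroup.closure_le _).2 fun x hx => ⟨⟨x, hTM hx.1.1⟩, Subgroup.subset_closure ⟨⟨hx.1.1, ?_⟩, ?_⟩, rfl⟩
  · exact Subgroup.mem_centralizer_iff.2 fun t ht => Subtype.ext (Subgroup.mem_centralizer_iff.1 hx.1.2 t ht)
  · exact Subtype.ext (by simpa using hx.2)

variable [Fact p.Prime]

/-- **Factorisation from the constrained sections.** -/
theorem omega_factor_of_constrained {W : ∀ (Q : Type u) [Group Q], Subgroup Q}
    (hW : Cfsg.IsCharPFunctor.{u} p W) (n : ℕ) : ∀ (G : Type u) [Group G] [Finite G], Nat.card G = n →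
    (∀ (X : Type u) [Group X] [Finite X], IsSection X G → Constrained p X → ∀ T : Sylow p X, ∀ x : X,
      ∃ a ∈ Subgroup.centralizer (omegaCenter p (T : Subgroup X) : Set X),
        ∃ b ∈ Subgroup.normalizer (Cfsg.inducedFunctor W (T : Subgroup X) : Set X), x = a * b) →
    ∀ S : Sylow p G, omegaCenter p (S : Subgroup G) ≤ Cfsg.pCore p G → ∀ x : G,
      ∃ a ∈ Subgroup.centralizer (omegaCenter p (S : Subgroup G) : Set G),
        ∃ b ∈ Subgroup.normalizer (Cfsg.inducedFunctor W (S : Subgroup G) : Set G), x = a * b := by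
  induction n using Nat.strong_induction_on with
  | h n ih =>
  intro G _ _ hn hyp S hZ x
  set S' := (S : Subgroup G) with hS'
  set Z := omegaCenter p S' with hZdef
  set Q := Cfsg.pCore p G with hQ
  by_cases hO : Cfsg.pPrimeCore p G = ⊥
  swap
  · set f := QuotientGroup.mk' (Cfsg.pPrimeCore p G) with hf
    have hfs : Function.Surjective f := QuotientGroup.mk'_surjective _
    have hker : ¬ p ∣ Nat.card f.ker := by rw [QuotientGroup.ker_mk']; exact Cores.not_dvd_card_pPrimeCore
    have hbot : ∀ R : Subgroup G, IsPGroup p R → f.ker ⊓ R = ⊥ := fun R hR =>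
      Subgroup.card_eq_one.mp ((hR.to_le inf_le_right).card_eq_or_dvd.resolve_right fun hd =>
        hker (hd.trans (Subgroup.card_dvd_of_le inf_le_left)))
    let T := S.mapSurjective hfs
    have hQmap : Q.map f ≤ Cfsg.pCore p (G ⧸ Cfsg.pPrimeCore p G) := by
      haveI : (Q.map f).Normal := Subgroup.Normal.map inferInstance f hfs
      exact Cores.le_pCore ((Cores.isPGroup_pCore p G).map f)
    have hZT : omegaCenter p (T : Subgroup (G ⧸ Cfsg.pPrimeCore p G)) ≤ Cfsg.pCore p (G ⧸ Cfsg.pPrimeCore p G) := by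
      refine (Subgroup.closure_le _).2 fun y hy => ?_
      obtain ⟨⟨hyT, hyC⟩, hyp'⟩ := hy
      rw [Sylow.coe_mapSurjective] at hyT hyC
      obtain ⟨s, hs, rfl⟩ := hyT
      refine hQmap (Subgroup.mem_map_of_mem f (hZ (Subgroup.subset_closure ⟨⟨hs, ?_⟩, ?_⟩)))
      · refine Subgroup.mem_centralizer_iff.2 fun t ht => ?_
        have h1 : (t * s) * (s * t)⁻¹ ∈ f.ker ⊓ S' := ⟨MonoidHom.mem_ker.2 (by
            rw [map_mul, map_inv, map_mul, map_mul,
              Subgroup.mem_centralizer_iff.1 hyC (f t) (Subgroup.mem_map_of_mem f ht), mul_inv_cancel]),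
          S'.mul_mem (S'.mul_mem ht hs) (S'.inv_mem (S'.mul_mem hs ht))⟩
        rw [hbot S' S.2, Subgroup.mem_bot, mul_inv_eq_one] at h1
        exact h1
      · have h1 : s ^ p ∈ f.ker ⊓ S' :=
          ⟨MonoidHom.mem_ker.2 (by rw [map_pow]; exact hyp'), S'.pow_mem hs p⟩
        rw [hbot S' S.2, Subgroup.mem_bot] at h1
        exact h1
    obtain ⟨a', ha', b', hb', hab⟩ := ih _ (hn ▸ card_quotient_lt hO) (G ⧸ Cfsg.pPrimeCore p G) rfl
      (fun X _ _ hX hc => hyp X (hX.of_surjective f hfs) hc) T hZT (f x)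
    have hWmap : (Cfsg.inducedFunctor W S').map f = Cfsg.inducedFunctor W (T : Subgroup (G ⧸ Cfsg.pPrimeCore p G)) := by
      rw [Sylow.coe_mapSurjective, inducedFunctor_map hW f S.2]
      intro y hy h1
      have : y ∈ f.ker ⊓ S' := ⟨MonoidHom.mem_ker.2 h1, hy⟩
      rwa [hbot S' S.2, Subgroup.mem_bot] at this
    rw [← hWmap] at hb'
    have hWle := (isConjugacyFunctor_inducedFunctor hW S' S.2).1
    have hSW : S' ≤ Subgroup.normalizer (Cfsg.inducedFunctor W S' : Set G) :=
      Subgroup.le_normalizer.trans (normalizer_le_normalizer_functor (isConjugacyFunctor_inducedFunctor hW) S.2)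
    obtain ⟨b, hb, hfb, -⟩ := exists_lift_normalizer f hfs hker S hWle hSW hb' (X := ⊥) bot_le
      (by rw [Subgroup.map_bot, cj_eq_bot_iff.2 rfl]; exact bot_le)
    refine ⟨x * b⁻¹, Subgroup.mem_centralizer_iff.2 fun z hz => ?_, b, hb, (inv_mul_cancel_right x b).symm⟩
    have hfa : f (x * b⁻¹) = a' := by rw [map_mul, map_inv, hfb, hab, mul_inv_cancel_right]
    have h1 : x * b⁻¹ * z * (x * b⁻¹)⁻¹ * z⁻¹ ∈ f.ker ⊓ Q := by
      refine ⟨MonoidHom.mem_ker.2 ?_, Q.mul_mem ((inferInstance : Q.Normal).conj_mem z (hZ hz) _) (Q.inv_mem (hZ hz))⟩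
      have hcz := Subgroup.mem_centralizer_iff.1 ha' (f z) (by
        have := Subgroup.mem_map_of_mem f hz
        rw [Sylow.coe_mapSurjective]
        exact map_omegaCenter_le f S' this)
      simp only [map_mul f (x * b⁻¹ * z * (x * b⁻¹)⁻¹), map_inv, map_mul f (x * b⁻¹ * z),
        map_mul f (x * b⁻¹) z, hfa]
      rw [← hcz, mul_inv_cancel_right, mul_inv_cancel]
    rw [hbot Q (Cores.isPGroup_pCore p G), Subgroup.mem_bot, mul_inv_eq_one, mul_inv_eq_iff_eq_mul] at h1
    exact h1.symm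
  by_cases hcon : Constrained p G
  · exact hyp G IsSection.refl hcon S x
  set C := Subgroup.centralizer ((Q : Subgroup G) : Set G)
  set R₀ := S' ⊓ (Q ⊔ C) with hR₀
  set M := Subgroup.normalizer (R₀ : Set G) with hM
  have hMtop : M ≠ ⊤ := normalizer_inf_ne_top S hO hcon
  have hSM : S' ≤ M := fun s hs => by
    refine cj_eq_self_iff.mp ?_
    rw [hR₀, cj_inf, cj_eq_self_of_mem hs,
      cj_eq_self_iff.mpr (by rw [Subgroup.normalizer_eq_top]; exact Subgroup.mem_top s)]
  obtain ⟨c, hc, m, hm, rfl⟩ := exists_factor S x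
  let TM : Sylow p M := S.subtype hSM
  have hZM : omegaCenter p (TM : Subgroup M) ≤ Cfsg.pCore p M := by
    haveI : (R₀.subgroupOf M).Normal := Subgroup.normal_in_normalizer
    have hR : IsPGroup p (R₀.subgroupOf M) := (S.2.to_inf_left (K := Q ⊔ C)).comap_subtype
    intro z hz
    refine Cores.le_pCore hR (Subgroup.mem_subgroupOf.2 (pCore_le_inf_sup S (hZ ?_)))
    have := map_omegaCenter_le (p := p) M.subtype (TM : Subgroup M) (Subgroup.mem_map_of_mem _ hz)
    rwa [show (TM : Subgroup M).map M.subtype = S' from Subgroup.map_subgroupOf_eq_of_le hSM] at this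
  obtain ⟨a, ha, b, hb, hab⟩ := ih _ (hn ▸ card_subgroup_lt hMtop) M rfl
    (fun X _ _ hX hc => hyp X hX.of_subgroup hc) TM hZM ⟨m, hm⟩
  refine ⟨c * a, Subgroup.mul_mem _ ?_ ?_, b, ?_, ?_⟩
  · exact Subgroup.centralizer_le hZ hc
  · refine Subgroup.mem_centralizer_iff.2 fun z hz => ?_
    obtain ⟨z', hz', rfl⟩ := omegaCenter_le_map_subtype hSM hz
    exact congrArg Subtype.val (Subgroup.mem_centralizer_iff.1 ha z' hz')
  · have h1 := Subgroup.le_normalizer_map M.subtype (Subgroup.mem_map_of_mem M.subtype hb)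
    rwa [← inducedFunctor_map hW M.subtype TM.2 fun y _ hy => Subtype.ext hy,
      show (TM : Subgroup M).map M.subtype = S' from Subgroup.map_subgroupOf_eq_of_le hSM] at h1
  · rw [show m = (a : G) * b from congrArg Subtype.val hab, mul_assoc]

/-- Fusion through two normalizers from a factorisation by them. -/
theorem fusionOK_of_pair {W₁ W₂ : ∀ (Q : Type u) [Group Q], Subgroup Q}
    (h₁ : Cfsg.IsCharPFunctor.{u} p W₁) (h₂ : Cfsg.IsCharPFunctor.{u} p W₂) {X : Type u} [Group X] [Finite X]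
    (hf : ∀ T : Sylow p X, ∀ x : X, ∃ a ∈ Subgroup.normalizer (Cfsg.inducedFunctor W₁ (T : Subgroup X) : Set X),
      ∃ b ∈ Subgroup.normalizer (Cfsg.inducedFunctor W₂ (T : Subgroup X) : Set X), x = a * b) :
    FusionOK p {W₁, W₂} X := by
  intro T B hB h _ hle
  have hS₁ : (T : Subgroup X) ≤ Subgroup.normalizer (Cfsg.inducedFunctor W₁ (T : Subgroup X) : Set X) :=
    Subgroup.le_normalizer.trans (normalizer_le_normalizer_functor (isConjugacyFunctor_inducedFunctor h₁) T.2)
  have hS₂ : (T : Subgroup X) ≤ Subgroup.normalizer (Cfsg.inducedFunctor W₂ (T : Subgroup X) : Set X) :=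
    Subgroup.le_normalizer.trans (normalizer_le_normalizer_functor (isConjugacyFunctor_inducedFunctor h₂) T.2)
  refine rel_of_factor T isFusionRel_reach hS₂ (hf T) (fun B _ g hg hle => ?_) (fun B _ g hg hle => ?_) hB hle
  · exact Reach.single ⟨_, ⟨W₂, Or.inr rfl, rfl⟩, rfl⟩ ⟨Subgroup.mem_top g, hg⟩ hle
  · rw [sup_eq_right.2 hS₁] at hg
    exact Reach.single ⟨_, ⟨W₁, Or.inl rfl, rfl⟩, rfl⟩ ⟨Subgroup.mem_top g, hg⟩ hle

end CfsgLib.ConjFunctor
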