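import Cfsg.Prelude.Def_PLocal
import Cfsg.Prelude.Def_LocalEven
import Cfsg.Agent.Lib.ConjFunctor.CriticalGroup
import Cfsg.Agent.Lib.QdFree.Stable

/-!
A critical group, and each of its sections, involves no `Qd(p)`: its elements of order prime to `p` commute
modulo the largest normal `p`-subgroup, whereas `SL(2, p)` contains a quaternion pair.
-/

set_option autoImplicit false
set_option linter.style.haveILetI false

namespace CfsgLib.ConjFunctor

open Cfsg CfsgLib.NormalPComplement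
open scoped commutatorElement

universe u v

/-- Commutators of elements of order prime to `p` are `p`-elements. -/
def PPrimeCommutatorsP (p : ℕ) (X : Type u) [Group X] : Prop :=
  ∀ a b : X, (orderOf a).Coprime p → (orderOf b).Coprime p → ∃ k : ℕ, ⁅a, b⁆ ^ p ^ k = 1

variable {p : ℕ} [Fact p.Prime]

theorem exists_coprime_preimage {A : Type u} {B : Type v} [Group A] [Group B] [Finite A] (f : A →* B)
    (hf : Function.Surjective f) {b : B} (hb : (orderOf b).Coprime p) :
    ∃ a : A, (orderOf a).Coprime p ∧ f a = b := by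
  obtain ⟨a, rfl⟩ := hf b
  obtain ⟨k, hk⟩ := exists_pow_coprime_orderOf (p := p) (isOfFinOrder_of_finite a)
  obtain ⟨m, hm⟩ := exists_pow_eq_self_of_coprime (hb.symm.pow_left k)
  exact ⟨(a ^ p ^ k) ^ m, hk.coprime_dvd_left (orderOf_pow_dvd m), by rw [map_pow, map_pow, hm]⟩

theorem PPrimeCommutatorsP.of_surjective {A : Type u} {B : Type v} [Group A] [Group B] [Finite A] (f : A →* B)
    (hf : Function.Surjective f) (h : PPrimeCommutatorsP p A) : PPrimeCommutatorsP p B := by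
  intro a b ha hb
  obtain ⟨a', ha', rfl⟩ := exists_coprime_preimage f hf ha
  obtain ⟨b', hb', rfl⟩ := exists_coprime_preimage f hf hb
  obtain ⟨k, hk⟩ := h a' b' ha' hb'
  exact ⟨k, by rw [← map_commutatorElement, ← map_pow, hk, map_one]⟩

omit [Fact p.Prime] in
theorem PPrimeCommutatorsP.subgroup {A : Type u} [Group A] (h : PPrimeCommutatorsP p A) (K : Subgroup A) :
    PPrimeCommutatorsP p K := by
  intro a b ha hb
  obtain ⟨k, hk⟩ := h a b (by rwa [Subgroup.orderOf_coe]) (by rwa [Subgroup.orderOf_coe])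
  refine ⟨k, K.subtype_injective ?_⟩
  rw [map_pow, map_commutatorElement, map_one]
  exact hk

theorem PPrimeCommutatorsP.quotient {A : Type u} [Group A] [Finite A] (h : PPrimeCommutatorsP p A)
    (K R : Subgroup A) [(R.subgroupOf K).Normal] : PPrimeCommutatorsP p (↥K ⧸ R.subgroupOf K) :=
  (h.subgroup K).of_surjective _ (QuotientGroup.mk'_surjective _)

theorem pPrimeCommutatorsP_of_critical {G : Type u} [Group G] [Finite G] {S : Sylow p G} (h : IsCritical S) :
    PPrimeCommutatorsP p G := by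
  intro a b ha hb
  obtain ⟨K, -, hKab, -, hmem⟩ := exists_abelian_complement h
  have hab : ⁅a, b⁆ ∈ Cfsg.pCore p G := by
    rw [← QuotientGroup.eq_one_iff]
    show QuotientGroup.mk' (Cfsg.pCore p G) ⁅a, b⁆ = 1
    rw [map_commutatorElement, commutatorElement_eq_one_iff_mul_comm]
    exact congrArg Subtype.val (hKab.is_comm.comm ⟨_, hmem a ha⟩ ⟨_, hmem b hb⟩)
  obtain ⟨k, hk⟩ := Cores.isPGroup_pCore p G ⟨_, hab⟩
  exact ⟨k, by simpa using congrArg Subtype.val hk⟩

/-- The quaternion pair inside `Qd(p)`. -/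
theorem not_pPrimeCommutatorsP_qd (hp : p ≠ 2) : ¬ PPrimeCommutatorsP p ↥(Cfsg.qd p) := by
  intro h
  haveI : Fact (2 < p) := ⟨lt_of_le_of_ne (Fact.out : p.Prime).two_le hp.symm⟩
  obtain ⟨a, b, hab⟩ := ZMod.sq_add_sq p (-1)
  have hdi : Matrix.det !![(0 : ZMod p), 1, 0; -1, 0, 0; 0, 0, 1] = 1 := by
    rw [Matrix.det_fin_three]; simp
  have hdj : Matrix.det !![a, b, 0; b, -a, 0; 0, 0, (1 : ZMod p)] = 1 := by
    rw [Matrix.det_fin_three]; simp; linear_combination -hab
  let i : ↥(Cfsg.qd p) := ⟨⟨_, hdi⟩, Subgroup.subset_closure ⟨rfl, rfl, rfl⟩⟩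
  let j : ↥(Cfsg.qd p) := ⟨⟨_, hdj⟩, Subgroup.subset_closure ⟨rfl, rfl, rfl⟩⟩
  let z : Matrix (Fin 3) (Fin 3) (ZMod p) := !![-1, 0, 0; 0, -1, 0; 0, 0, 1]
  have hzz : z * z = 1 := by
    ext k l; fin_cases k <;> fin_cases l <;> simp [z, Matrix.mul_apply, Fin.sum_univ_three]
  have hi2 : ((i : Matrix.SpecialLinearGroup (Fin 3) (ZMod p)) : Matrix (Fin 3) (Fin 3) (ZMod p)) *
      ((i : Matrix.SpecialLinearGroup (Fin 3) (ZMod p)) : Matrix (Fin 3) (Fin 3) (ZMod p)) = z := by
    ext k l; fin_cases k <;> fin_cases l <;> simp [i, z, Matrix.mul_apply, Fin.sum_univ_three]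
  have hj2 : ((j : Matrix.SpecialLinearGroup (Fin 3) (ZMod p)) : Matrix (Fin 3) (Fin 3) (ZMod p)) *
      ((j : Matrix.SpecialLinearGroup (Fin 3) (ZMod p)) : Matrix (Fin 3) (Fin 3) (ZMod p)) = z := by
    ext k l; fin_cases k <;> fin_cases l <;>
      simp [j, z, Matrix.mul_apply, Fin.sum_univ_three] <;> grind
  have hij : ((i : Matrix.SpecialLinearGroup (Fin 3) (ZMod p)) : Matrix (Fin 3) (Fin 3) (ZMod p)) *
      ((j : Matrix.SpecialLinearGroup (Fin 3) (ZMod p)) : Matrix (Fin 3) (Fin 3) (ZMod p)) =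
      z * (((j : Matrix.SpecialLinearGroup (Fin 3) (ZMod p)) : Matrix (Fin 3) (Fin 3) (ZMod p)) *
      ((i : Matrix.SpecialLinearGroup (Fin 3) (ZMod p)) : Matrix (Fin 3) (Fin 3) (ZMod p))) := by
    ext k l; fin_cases k <;> fin_cases l <;> simp [i, j, z, Matrix.mul_apply, Fin.sum_univ_three]
  have hi4 : i ^ 4 = 1 := by
    refine Subtype.ext (Subtype.ext ?_)
    rw [SubmonoidClass.coe_pow, Matrix.SpecialLinearGroup.coe_pow, show (4 : ℕ) = 2 + 2 from rfl, pow_add, sq, hi2, hzz]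
    rfl
  have hj4 : j ^ 4 = 1 := by
    refine Subtype.ext (Subtype.ext ?_)
    rw [SubmonoidClass.coe_pow, Matrix.SpecialLinearGroup.coe_pow, show (4 : ℕ) = 2 + 2 from rfl, pow_add, sq, hj2, hzz]
    rfl
  have h4 : Nat.Coprime 4 p := by
    have := ((Nat.coprime_primes Nat.prime_two (Fact.out : p.Prime)).2 hp.symm).pow_left 2
    simpa using this
  have hi := h4.coprime_dvd_left (orderOf_dvd_of_pow_eq_one hi4)
  have hj := h4.coprime_dvd_left (orderOf_dvd_of_pow_eq_one hj4)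
  obtain ⟨k, hk⟩ := h i j hi hj
  have hc : (((⁅i, j⁆ : ↥(Cfsg.qd p)) : Matrix.SpecialLinearGroup (Fin 3) (ZMod p)) :
      Matrix (Fin 3) (Fin 3) (ZMod p)) = z := by
    have e : ⁅i, j⁆ * (j * i) = i * j := by rw [commutatorElement_def]; group
    have e' := congrArg (fun x : ↥(Cfsg.qd p) => ((x : Matrix.SpecialLinearGroup (Fin 3) (ZMod p)) :
      Matrix (Fin 3) (Fin 3) (ZMod p))) e
    simp only [Subgroup.coe_mul, Matrix.SpecialLinearGroup.coe_mul, hij] at e'
    exact (IsUnit.mul_left_inj (((Matrix.isUnit_iff_isUnit_det _).2 (by rw [Matrix.det_mul, Matrix.SpecialLinearGroup.det_coe, Matrix.SpecialLinearGroup.det_coe, mul_one]; exact isUnit_one)))).1 e'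
  have h2 : ⁅i, j⁆ ^ 2 = 1 := by
    refine Subtype.ext (Subtype.ext ?_)
    rw [SubmonoidClass.coe_pow, Matrix.SpecialLinearGroup.coe_pow, hc, sq, hzz]
    rfl
  have h1 : ⁅i, j⁆ = 1 := orderOf_eq_one_iff.1 (Nat.eq_one_of_dvd_coprimes
    (((Nat.coprime_primes Nat.prime_two (Fact.out : p.Prime)).2 hp.symm).pow_right k)
    (orderOf_dvd_of_pow_eq_one h2) (orderOf_dvd_of_pow_eq_one hk))
  have := congrFun (congrFun (hc.symm.trans (congrArg
    (fun x : ↥(Cfsg.qd p) => ((x : Matrix.SpecialLinearGroup (Fin 3) (ZMod p)) :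
      Matrix (Fin 3) (Fin 3) (ZMod p))) h1)) 0) 0
  simp [z] at this
  exact ZMod.neg_one_ne_one this

/-- Such groups are `p`-stable in all sections. -/
theorem isNormalizerPStable_of_pPrimeCommutatorsP (hp : p ≠ 2) {X : Type u} [Group X] [Finite X]
    (h : PPrimeCommutatorsP p X) : Cfsg.IsNormalizerPStable p X := by
  refine CfsgLib.QdFree.isNormalizerPStable_of_not_involves_qd hp fun ⟨K, R, hR, ⟨e⟩⟩ => ?_
  exact not_pPrimeCommutatorsP_qd hp ((h.quotient K R).of_surjective e.toMonoidHom e.surjective)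

end CfsgLib.ConjFunctor
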