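import Cfsg.Agent.Lib.NormalPComplement.Reduction
import Cfsg.Agent.Lib.ConjFunctor.Sections

/-!
The minimal-counterexample reduction for normal `p`-complement theorems, with hypotheses on the sections of one
group only.
-/

set_option autoImplicit false
set_option linter.style.haveILetI false

open scoped Pointwise commutatorElement

universe u

namespace CfsgLib.ConjFunctor

open Cfsg CfsgLib.NormalPComplement

variable {p : ℕ} [hp : Fact p.Prime] {W Z : ∀ (G : Type u) [Group G], Subgroup G → Subgroup G}
variable {G₀ : Type u} [Group G₀]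
variable {G : Type u} [Group G] [Finite G]

/-- One step of the reduction: proper subgroups containing a Sylow subgroup. -/
theorem hasNormalPComplement_proper_section (hW : IsPFunctor p W) (hZ : IsPFunctor p Z) (hsec : IsSection G G₀)
    (ih : ∀ (H : Type u) [Group H] [Finite H], IsSection H G₀ → Nat.card H < Nat.card G → ∀ T : Sylow p H,
      ThompsonHyp p W Z H T → HasNormalPComplement p H)
    {U : Sylow p G} (hU : ThompsonHyp p W Z G U) {M : Subgroup G}
    (hUM : (U : Subgroup G) ≤ M) (hM : M ≠ ⊤) : HasNormalPComplement p M := by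
  have hlt : Nat.card M < Nat.card G :=
    lt_of_le_of_ne (Subgroup.card_le_card_group M) fun e => hM (Subgroup.eq_top_of_card_eq M e)
  refine ih M ((isSection_subgroup M).trans hsec) hlt (U.subtype hUM) (thompsonHyp_map hW hZ M.subtype M.subtype_injective
    (U.subtype hUM).2 ?_)
  rw [Sylow.coe_subtype, Subgroup.map_subgroupOf_eq_of_le hUM]
  exact hU

/-- Some non-trivial `p`-subgroup is normal. -/
theorem pCore_ne_bot_section (hW : IsPFunctor p W) (hZ : IsPFunctor p Z) (hsec : IsSection G G₀)
    (ih : ∀ (H : Type u) [Group H] [Finite H], IsSection H G₀ → Nat.card H < Nat.card G → ∀ T : Sylow p H,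
      ThompsonHyp p W Z H T → HasNormalPComplement p H)
    (S : Sylow p G) (hS : ThompsonHyp p W Z G S) (hG : ¬ HasNormalPComplement p G) :
    pCore p G ≠ ⊥ := by
  classical
  let F : Set (Subgroup G) := {R | IsPGroup p R ∧ R ≠ ⊥ ∧
    ¬ HasNormalPComplement p ↥(Subgroup.normalizer (R : Set G))}
  have hF : F.Nonempty := by
    by_contra hne
    refine hG (hasNormalPComplement_of_local fun Q hQ hQ1 => ?_)
    by_contra hn
    exact hne ⟨Q, hQ, hQ1, hn⟩
  obtain ⟨R, hR, hmax⟩ := F.toFinite.exists_maximalFor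
    (fun R : Subgroup G => (Nat.card ↥(Subgroup.normalizer (R : Set G))).factorization p) F hF
  obtain ⟨hRp, hR1, hRn⟩ := hR
  generalize hN : Subgroup.normalizer (R : Set G) = N at hRn
  by_cases hNtop : N = ⊤
  · intro e
    haveI : R.Normal := Subgroup.normalizer_eq_top_iff.1 (hN.trans hNtop)
    exact hR1 (le_bot_iff.1 (e ▸ Cores.le_pCore hRp))
  exfalso
  obtain ⟨T⟩ := (inferInstance : Nonempty (Sylow p N))
  obtain ⟨T', hT'⟩ : ∃ T' : Subgroup G, T' = (T : Subgroup N).map N.subtype := ⟨_, rfl⟩
  have hT'p : IsPGroup p T' := hT' ▸ T.2.map _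
  have hT'N : T' ≤ N := hT' ▸ Subgroup.map_subtype_le _
  have hcard : Nat.card T' = p ^ (Nat.card N).factorization p := by
    rw [hT', Subgroup.card_map_of_injective N.subtype_injective, T.card_eq_multiplicity]
  have hRT : R ≤ T' := by
    have hRN : R ≤ N := hN ▸ Subgroup.le_normalizer
    haveI : (R.subgroupOf N).Normal := by subst hN; exact Subgroup.normal_in_normalizer
    rw [hT', ← Subgroup.map_subgroupOf_eq_of_le hRN]
    exact Subgroup.map_mono (IsPGroup.le_sylow_of_normal (N := R.subgroupOf N) hRp.comap_subtype T)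
  obtain ⟨U, hTU⟩ := hT'p.exists_le_sylow
  have hU := thompsonHyp_sylow hW hZ S U hS
  rcases hTU.eq_or_lt with heq | hlt
  · exact hRn (hasNormalPComplement_proper_section hW hZ hsec ih hU (heq ▸ hT'N) hNtop)
  have hne : T' ≠ ⊥ := fun e => hR1 (le_bot_iff.1 (e ▸ hRT))
  have hloc : ∀ V : ∀ (G : Type u) [Group G], Subgroup G → Subgroup G, IsPFunctor p V →
      HasNormalPComplement p ↥(Subgroup.normalizer (V G T' : Set G)) := by
    intro V hV
    by_contra hn
    have hmem : V G T' ∈ F :=
      ⟨hT'p.to_le (hV.le G T' hT'p), hV.ne_bot G T' hT'p hne, hn⟩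
    have h1 : T' < (U : Subgroup G) ⊓ Subgroup.normalizer (T' : Set G) :=
      inf_normalizer_gt U.2 hlt
    obtain ⟨m, hm⟩ := IsPGroup.iff_card.1 (U.2.to_inf_left (K := Subgroup.normalizer (T' : Set G)))
    have h2 : p ^ m ∣ Nat.card ↥(Subgroup.normalizer (V G T' : Set G)) :=
      hm ▸ Subgroup.card_dvd_of_le (inf_le_right.trans (hV.normalizer_le hT'p))
    have h3 := (Set.Finite.card_lt_card (Set.toFinite _) h1 :
      Nat.card T' < Nat.card ↥((U : Subgroup G) ⊓ Subgroup.normalizer (T' : Set G)))
    simp only [SetLike.coe_sort_coe] at h3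
    rw [hcard, hm, Nat.pow_lt_pow_iff_right (Nat.Prime.one_lt Fact.out)] at h3
    have h4 := ((Fact.out : p.Prime).pow_dvd_iff_le_factorization Nat.card_pos.ne').1 h2
    have h5 := hmax hmem (by simp only [hN]; omega)
    simp only [hN] at h5
    omega
  refine hRn (ih N ((isSection_subgroup N).trans hsec) (lt_of_le_of_ne (Subgroup.card_le_card_group N)
    fun e => hNtop (Subgroup.eq_top_of_card_eq N e)) T
    (thompsonHyp_map hW hZ N.subtype N.subtype_injective T.2 ?_))
  rw [← hT']
  exact ⟨hloc W hW, hasNormalPComplement_of_le (Subgroup.centralizer_le_normalizer _) (hloc Z hZ)⟩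

/-- In a minimal counterexample without normal `p'`-subgroups the quotient by `O_p` is
`p`-nilpotent. -/
theorem hasNormalPComplement_quotient_section (hW : IsPFunctor p W) (hZ : IsPFunctor p Z) (hsec : IsSection G G₀)
    (ih : ∀ (H : Type u) [Group H] [Finite H], IsSection H G₀ → Nat.card H < Nat.card G → ∀ T : Sylow p H,
      ThompsonHyp p W Z H T → HasNormalPComplement p H)
    (S : Sylow p G) (hS : ThompsonHyp p W Z G S) (hQ : pCore p G ≠ ⊥) :
    HasNormalPComplement p (G ⧸ pCore p G) := by
  let π := QuotientGroup.mk' (pCore p G)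
  let T : Sylow p (G ⧸ pCore p G) := S.mapSurjective (QuotientGroup.mk'_surjective (pCore p G))
  by_cases hT : (T : Subgroup (G ⧸ pCore p G)) = ⊥
  · exact hasNormalPComplement_of_coprime
      ((Nat.Prime.coprime_iff_not_dvd Fact.out).2 (not_dvd_of_sylow_eq_bot T hT)).symm
  have hloc : ∀ V : ∀ (G : Type u) [Group G], Subgroup G → Subgroup G, IsPFunctor p V →
      HasNormalPComplement p
        ↥(Subgroup.normalizer (V (G ⧸ pCore p G) T : Set (G ⧸ pCore p G))) := by
    intro V hV
    obtain ⟨X, hX⟩ : ∃ X : Subgroup (G ⧸ pCore p G), X = V (G ⧸ pCore p G) T := ⟨_, rfl⟩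
    rw [← hX]
    have hXp : IsPGroup p X := hX ▸ T.2.to_le (hV.le _ _ T.2)
    obtain ⟨M, hM⟩ : ∃ M : Subgroup G, M = Subgroup.normalizer (X.comap π : Set G) := ⟨_, rfl⟩
    have hMX : M = (Subgroup.normalizer (X : Set (G ⧸ pCore p G))).comap π := by
      rw [hM, Subgroup.comap_normalizer_eq_of_surjective _ (QuotientGroup.mk'_surjective _)]
    have hSM : (S : Subgroup G) ≤ M := by
      intro s hs
      rw [hMX, Subgroup.mem_comap]
      refine hX ▸ hV.normalizer_le T.2 (Subgroup.le_normalizer ?_)
      exact ⟨s, hs, rfl⟩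
    have hne : M ≠ ⊤ := by
      intro e
      haveI : (X.comap π).Normal := Subgroup.normalizer_eq_top_iff.1 (hM ▸ e)
      have hle : X.comap π ≤ pCore p G := Cores.le_pCore (hXp.comap_of_ker_isPGroup π (by
        rw [QuotientGroup.ker_mk']; exact Cores.isPGroup_pCore p G))
      refine hV.ne_bot _ _ T.2 hT (hX ▸ eq_bot_iff.2 fun x hx => ?_)
      obtain ⟨g, rfl⟩ := QuotientGroup.mk'_surjective (pCore p G) x
      exact (QuotientGroup.eq_one_iff g).2 (hle hx)
    refine hasNormalPComplement_of_le_map π ?_ (hasNormalPComplement_proper_section hW hZ hsec ih hS hSM hne)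
    rw [hMX, Subgroup.map_comap_eq_self_of_surjective (QuotientGroup.mk'_surjective _)]
  refine ih _ ((IsSection.refl.of_surjective _ (QuotientGroup.mk'_surjective (pCore p G))).trans hsec) ?_ T ⟨hloc W hW,
    hasNormalPComplement_of_le (Subgroup.centralizer_le_normalizer _) (hloc Z hZ)⟩
  have hmul := Subgroup.card_eq_card_quotient_mul_card_subgroup (pCore p G)
  have h1 : 1 < Nat.card (pCore p G) := Subgroup.one_lt_card_iff_ne_bot _ |>.2 hQ
  rw [hmul]
  exact lt_mul_of_one_lt_right Nat.card_pos h1


/-- The functor on subgroups attached to an iso-invariant functor. -/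
theorem isPFunctor_inducedFunctor {V : ∀ (Q : Type u) [Group Q], Subgroup Q} (hV : Cfsg.IsCharPFunctor.{u} p V) :
    IsPFunctor.{u} p fun G _ T => Cfsg.inducedFunctor V T where
  le _ _ _ T hT := (isConjugacyFunctor_inducedFunctor hV T hT).1
  ne_bot _ _ _ T hT hne := (isConjugacyFunctor_inducedFunctor hV T hT).2.1 hne
  map _ _ _ _ _ _ f T hT hinj := inducedFunctor_map hV f hT fun x hx h1 =>
    hinj hx T.one_mem (h1.trans f.map_one.symm)

/-- **Thompson's reduction on sections.** -/
theorem hasNormalPComplement_of_sections {V : ∀ (Q : Type u) [Group Q], Subgroup Q}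
    (hV : Cfsg.IsCharPFunctor.{u} p V) [Finite G₀]
    (hcrit : ∀ (H : Type u) [Group H] [Finite H], IsSection H G₀ → ∀ T : Sylow p H, IsCritical T →
      HasNormalPComplement p (Subgroup.normalizer (Cfsg.inducedFunctor V (T : Subgroup H) : Set H)) → False)
    (S : Sylow p G₀)
    (hS : HasNormalPComplement p (Subgroup.normalizer (Cfsg.inducedFunctor V (S : Subgroup G₀) : Set G₀))) :
    HasNormalPComplement p G₀ := by
  have hW := isPFunctor_inducedFunctor hV
  let W : ∀ (G : Type u) [Group G], Subgroup G → Subgroup G := fun G _ T => Cfsg.inducedFunctor V T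
  suffices h : ∀ (n : ℕ) (H : Type u) [Group H] [Finite H], IsSection H G₀ → Nat.card H = n → ∀ T : Sylow p H,
      ThompsonHyp p W W H T → HasNormalPComplement p H from
    h _ G₀ IsSection.refl rfl S ⟨hS, hasNormalPComplement_of_le (Subgroup.centralizer_le_normalizer _) hS⟩
  intro n
  induction n using Nat.strong_induction_on with
  | _ n ih =>
  intro H _ _ hsec hcard T hT
  have ih' : ∀ (K : Type u) [Group K] [Finite K], IsSection K G₀ → Nat.card K < Nat.card H → ∀ U : Sylow p K,
      ThompsonHyp p W W K U → HasNormalPComplement p K :=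
    fun K _ _ hK hlt U hU => ih _ (hcard ▸ hlt) K hK rfl U hU
  by_contra hnot
  have hK : pPrimeCore p H = ⊥ := by
    by_contra hne
    refine hnot (hasNormalPComplement_of_quotient (pPrimeCore p H)
      (Cores.card_pPrimeCore_coprime p) (ih' _ ((IsSection.refl.of_surjective _ (QuotientGroup.mk'_surjective (pPrimeCore p H))).trans hsec) ?_
        (T.mapSurjective (QuotientGroup.mk'_surjective _))
        (thompsonHyp_quotient_pPrime hW hW T hT _ (Cores.card_pPrimeCore_coprime p))))
    rw [Subgroup.card_eq_card_quotient_mul_card_subgroup (pPrimeCore p H)]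
    exact lt_mul_of_one_lt_right Nat.card_pos (Subgroup.one_lt_card_iff_ne_bot _ |>.2 hne)
  have hQ := pCore_ne_bot_section hW hW hsec ih' T hT hnot
  have hq := hasNormalPComplement_quotient_section hW hW hsec ih' T hT hQ
  have hC := centralizer_pCore_le_of_quotient hK hq
  have hmax : ∀ M : Subgroup H, (T : Subgroup H) ≤ M → M = (T : Subgroup H) ∨ M = ⊤ := by
    intro M hTM
    by_contra hM
    push Not at hM
    have hMn := hasNormalPComplement_proper_section hW hW hsec ih' hT hTM hM.2
    refine hM.1 (T.3 (isPGroup_of_forall_coprime fun c hc hc' => ?_) hTM)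
    have hQM : pCore p H ≤ M := (Cores.pCore_le_sylow T).trans hTM
    have hcent : c ∈ Subgroup.centralizer (pCore p H : Set H) := by
      refine Subgroup.mem_centralizer_iff.2 fun x hx => ?_
      have h := commute_of_normal_pGroup hMn (Q := (pCore p H).subgroupOf M)
        (Cores.isPGroup_pCore p H).comap_subtype (g := ⟨c, hc⟩) (x := ⟨x, hQM hx⟩)
        (by rwa [← orderOf_injective M.subtype M.subtype_injective]) hx
      exact congrArg Subtype.val h.eq
    obtain ⟨n, hn⟩ := IsPGroup.iff_card.1 (Cores.isPGroup_pCore p H)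
    exact orderOf_eq_one_iff.1 (Nat.eq_one_of_dvd_coprimes (hc'.pow_right n) dvd_rfl
      (hn ▸ Subgroup.orderOf_dvd_natCard _ (hC hcent)))
  exact hcrit H hsec T ⟨hnot, hK, hC, hmax, fun k l hk hl => isCritical_comm hq hmax hk hl,
    fun a ha hfix => isCritical_faith hnot hmax ha hfix⟩ hT.1

end CfsgLib.ConjFunctor
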